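import Mathlib

/-! Sums of squares in fields containing `√5` and an odd root of unity. -/

set_option autoImplicit false

namespace Cfsg.Agent.Part.Am

open Finset

section two
variable {K : Type*} [Field K]

/-- Sums of two squares. -/
def S2 (x : K) : Prop := ∃ a b : K, x = a ^ 2 + b ^ 2

theorem S2.div {x y : K} (hx : S2 x) (hy : S2 y) (h0 : y ≠ 0) : S2 (x / y) := by
  obtain ⟨a, b, rfl⟩ := hx
  obtain ⟨c, d, e⟩ := hy
  refine ⟨(a * c + b * d) / y, (a * d - b * c) / y, ?_⟩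
  field_simp
  rw [e]; ring

theorem s2_of_dvd [CharZero K] {δ : K} (hδ : δ ^ 2 = 5) (n : ℕ) :
    0 < n → (∃ s : ℤ, (n : ℤ) ∣ s ^ 2 + 5) → S2 (n : K) := by
  induction n using Nat.strong_induction_on with | _ n ih
  intro h0 ⟨s, hs⟩
  by_cases h3 : n < 3
  · interval_cases n
    · exact ⟨1, 0, by norm_num⟩
    · exact ⟨1, 1, by norm_num⟩
  have hn : (0 : ℤ) < n := by exact_mod_cast h0
  obtain ⟨t, ht, h1, h2⟩ : ∃ t : ℤ, (n : ℤ) ∣ t ^ 2 + 5 ∧ -(n : ℤ) ≤ 2 * t ∧ 2 * t ≤ n := by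
    have e1 := Int.emod_nonneg s hn.ne'
    have e2 := Int.emod_lt_of_pos s hn
    have e3 : (n : ℤ) ∣ (s % n) ^ 2 + 5 := by
      have : (s % n) ^ 2 + 5 = s ^ 2 + 5 - n * ((s / n) * (s + s % n)) := by
        have := Int.mul_ediv_add_emod s n
        linear_combination (s + s % n) * this
      rw [this]
      exact dvd_sub hs (dvd_mul_right _ _)
    by_cases h : 2 * (s % n) ≤ n
    · exact ⟨s % n, e3, by omega, h⟩
    · refine ⟨s % n - n, ?_, by omega, by omega⟩
      have : (s % n - n) ^ 2 + 5 = (s % n) ^ 2 + 5 + n * (n - 2 * (s % n)) := by ring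
      rw [this]
      exact dvd_add e3 (dvd_mul_right _ _)
  obtain ⟨k, hk⟩ := ht
  have n3 : (3 : ℤ) ≤ n := by exact_mod_cast not_lt.1 h3
  have k0 : 0 < k := by
    by_contra h
    nlinarith [sq_nonneg t]
  have kn : k < n := by
    by_contra h
    nlinarith
  obtain ⟨m, rfl⟩ := Int.eq_ofNat_of_zero_le k0.le
  have m0 : 0 < m := by exact_mod_cast k0
  have := ih m (by exact_mod_cast kn) m0 ⟨t, hk ▸ dvd_mul_left _ _⟩
  have m1 : (m : K) ≠ 0 := Nat.cast_ne_zero.2 m0.ne'
  have e : (n : K) = ((t : K) ^ 2 + δ ^ 2) / m := by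
    rw [hδ, eq_div_iff m1]
    exact_mod_cast hk.symm
  rw [e]
  exact S2.div ⟨_, _, rfl⟩ this m1

end two

theorem exists_prime {r : ℕ} (h : r.Coprime 20) :
    ∃ l : ℕ, l.Prime ∧ l % 4 = 3 ∧ r ∣ l + 1 ∧ ∃ s : ℤ, (l : ℤ) ∣ s ^ 2 + 5 := by
  have r0 : r ≠ 0 := by
    rintro rfl
    simp at h
  obtain ⟨a, h1, h2⟩ := Nat.chineseRemainder h (r - 1) 3
  have c : a.Coprime (r * 20) := by
    refine Nat.Coprime.mul_right ?_ ?_
    · rw [Nat.coprime_iff_gcd_eq_one, h1.gcd_eq]
      obtain ⟨r, rfl⟩ := Nat.exists_eq_succ_of_ne_zero r0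
      simp
    · rw [Nat.coprime_iff_gcd_eq_one, h2.gcd_eq]
      norm_num
  obtain ⟨l, -, hl, e⟩ := Nat.forall_exists_prime_gt_and_modEq 0 (mul_ne_zero r0 (by norm_num)) c
  have e1 : l ≡ r - 1 [MOD r] := (e.of_mul_right 20).trans h1
  have e2 : l ≡ 3 [MOD 20] := (e.of_mul_left r).trans h2
  have e3 : l % 20 = 3 := e2
  refine ⟨l, hl, by omega, ?_, ?_⟩
  · have := e1.add_right 1
    rw [Nat.sub_add_cancel (Nat.one_le_iff_ne_zero.2 r0)] at this
    exact (Nat.modEq_zero_iff_dvd).1 (this.trans (Nat.modEq_zero_iff_dvd.2 dvd_rfl))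
  · have := Fact.mk hl
    have j : jacobiSym (-5) l = 1 := by
      rw [jacobiSym.mod_right _ (Nat.odd_iff.2 (by omega))]
      simp only [Int.reduceNeg, Int.natAbs_neg, Int.reduceAbs, Nat.reduceMul]
      rw [e3]
      norm_num
    obtain ⟨s, hs⟩ := ZMod.isSquare_of_jacobiSym_eq_one j
    obtain ⟨s, rfl⟩ := ZMod.intCast_surjective s
    refine ⟨s, (ZMod.intCast_zmod_eq_zero_iff_dvd _ _).1 ?_⟩
    push_cast at hs ⊢
    linear_combination -hs

/-- Gauss: `4 Φ_l(x) = A² + l B²`. -/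
theorem gauss {K : Type*} [Field K] [CharZero K] {l : ℕ} (hl : l.Prime) (h4 : l % 4 = 3) (x : K) (x1 : x ≠ 1) :
    ∃ A B : K, (x - 1) * (A ^ 2 + l * B ^ 2) = 4 * (x ^ l - 1) := by
  classical
  have := Fact.mk hl
  have : NeZero l := ⟨hl.ne_zero⟩
  let L := CyclotomicField l K
  have : IsGalois K L := IsCyclotomicExtension.isGalois {l} K L
  have : FiniteDimensional K L := IsCyclotomicExtension.finiteDimensional {l} K L
  have hη := IsCyclotomicExtension.zeta_spec l K L
  set η := IsCyclotomicExtension.zeta l K L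
  let ψ : AddChar (ZMod l) L := AddChar.zmodChar l ((IsPrimitiveRoot.iff_def η l).mp hη).left
  have hψ : ψ.IsPrimitive := AddChar.zmodChar_primitive_of_primitive_root l hη
  let χ0 := quadraticChar (ZMod l)
  let χ : MulChar (ZMod l) L := χ0.ringHomComp (Int.castRingHom L)
  have l2 : ringChar (ZMod l) ≠ 2 := by rw [ZMod.ringChar_zmod_n]; omega
  have inj : Function.Injective (Int.castRingHom L) := RingHom.injective_int _
  have χ1 : χ ≠ 1 := (MulChar.ringHomComp_ne_one_iff inj).2 (quadraticChar_ne_one l2)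
  have χ2 : χ.IsQuadratic := (quadraticChar_isQuadratic _).comp _
  have hg := gaussSum_sq χ1 χ2 hψ
  have hm : χ (-1) = -1 := by
    have : χ0 (-1) = -1 := by
      rw [quadraticChar_neg_one l2, ZMod.card, ZMod.χ₄_nat_three_mod_four h4]
    simp [χ, this]
  rw [hm, ZMod.card] at hg
  set g := gaussSum χ ψ with hgd
  have g0 : g ≠ 0 := by
    intro e
    rw [e] at hg
    simp [hl.ne_zero] at hg
  let P : ℤ → L := fun ε => ∏ y ∈ univ.filter (fun y : ZMod l => χ0 y = ε), (algebraMap K L x - ψ y)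
  have key : ∀ σ : L ≃ₐ[K] L, ∃ ε : ℤ, (ε = 1 ∨ ε = -1) ∧ σ g = ε * g ∧ ∀ e, σ (P e) = P (ε * e) := by
    intro σ
    have h1 : IsPrimitiveRoot (σ η) l := hη.map_of_injective σ.injective
    obtain ⟨c, hc, e⟩ := hη.eq_pow_of_pow_eq_one h1.pow_eq_one
    have c0 : (c : ZMod l) ≠ 0 := by
      intro h
      have : c = 0 := Nat.eq_zero_of_dvd_of_lt ((ZMod.natCast_eq_zero_iff _ _).1 h) hc
      rw [this, pow_zero] at e
      exact h1.ne_one hl.one_lt e.symm
    have hs : ∀ y, σ (ψ y) = ψ (c * y) := fun y => by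
      have : (c : ZMod l) * y = ((c * y.val : ℕ) : ZMod l) := by simp
      rw [this, AddChar.zmodChar_apply', AddChar.zmodChar_apply, map_pow, ← e, pow_mul]
    have hd := quadraticChar_dichotomy c0
    have sq : χ0 c * χ0 c = 1 := by rcases hd with h | h <;> simp [χ0, h]
    refine ⟨χ0 c, hd, ?_, fun e => ?_⟩
    · have := gaussSum_mulShift χ ψ (Units.mk0 _ c0)
      have e2 : σ g = gaussSum χ (ψ.mulShift (Units.mk0 _ c0 : (ZMod l)ˣ)) := by
        simp only [hgd, gaussSum, map_sum, map_mul, hs, AddChar.mulShift_apply, Units.val_mk0]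
        refine Finset.sum_congr rfl fun y _ => ?_
        simp [χ]
      rw [e2, hgd, ← this, ← mul_assoc]
      have : ((χ0 c : ℤ) : L) * χ (Units.mk0 (c : ZMod l) c0 : (ZMod l)ˣ) = 1 := by
        simp only [χ, MulChar.ringHomComp_apply, Units.val_mk0, eq_intCast]
        rw [← Int.cast_mul, sq, Int.cast_one]
      rw [this, one_mul]
    · simp only [P, map_prod, map_sub, AlgEquiv.commutes, hs]
      refine Finset.prod_bij (fun y _ => (c : ZMod l) * y) ?_ ?_ ?_ (fun _ _ => rfl)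
      · intro y hy
        simp only [mem_filter, mem_univ, true_and] at hy ⊢
        rw [map_mul, hy]
      · intro a _ b _ h
        exact mul_left_cancel₀ c0 h
      · intro y hy
        simp only [mem_filter, mem_univ, true_and] at hy ⊢
        refine ⟨(c : ZMod l)⁻¹ * y, ?_, by field_simp⟩
        have : χ0 c * χ0 ((c : ZMod l)⁻¹ * y) = χ0 c * e := by
          rw [← map_mul, ← hy]
          congr 1
          field_simp
        calc _ = χ0 c * χ0 c * χ0 ((c : ZMod l)⁻¹ * y) := by rw [sq, one_mul]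
          _ = e := by rw [mul_assoc, this, ← mul_assoc, sq, one_mul]
  obtain ⟨A, hA⟩ := (IsGalois.mem_range_algebraMap_iff_fixed (F := K) (P 1 + P (-1))).2 fun σ => by
    obtain ⟨ε, h | h, -, h3⟩ := key σ <;> simp [h3, h, add_comm]
  obtain ⟨B, hB⟩ := (IsGalois.mem_range_algebraMap_iff_fixed (F := K) ((P 1 - P (-1)) / g)).2 fun σ => by
    obtain ⟨ε, h | h, h2, h3⟩ := key σ
    · simp [h3, h2, h]
    · simp only [map_div₀, map_sub, h3, h2, h]
      simp only [Int.reduceNeg, mul_one, mul_neg, neg_neg, Int.cast_neg, Int.cast_one, neg_mul, one_mul]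
      rw [neg_one_mul g, div_neg, ← neg_div, neg_sub]
  have hP : P 0 * (P 1 * P (-1)) = algebraMap K L x ^ l - 1 := by
    have e1 : ∏ y : ZMod l, (algebraMap K L x - ψ y) = algebraMap K L x ^ l - 1 := by
      have := congrArg (Polynomial.eval (algebraMap K L x))
        (X_pow_sub_C_eq_prod hη hl.pos (one_pow l))
      simp only [Polynomial.eval_sub, Polynomial.eval_pow, Polynomial.eval_X, Polynomial.eval_C,
        Polynomial.eval_prod, mul_one] at this
      rw [this]
      refine Finset.prod_bij (fun y _ => y.val) (fun y _ => mem_range.2 (ZMod.val_lt y))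
        (fun a _ b _ h => ZMod.val_injective l h) (fun i hi => ⟨(i : ZMod l), mem_univ _,
          ZMod.val_natCast_of_lt (mem_range.1 hi)⟩) fun y _ => rfl
    rw [← e1, ← Finset.prod_fiberwise_of_maps_to (t := ({0, 1, -1} : Finset ℤ)) (g := fun y => χ0 y)]
    · rw [Finset.prod_insert (by decide), Finset.prod_pair (by decide)]
    · intro y _
      rcases quadraticChar_isQuadratic (ZMod l) y with h | h | h <;> simp [χ0, h]
  have hP0 : P 0 = algebraMap K L x - 1 := by
    have : univ.filter (fun y : ZMod l => χ0 y = 0) = {0} := by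
      ext y
      simp only [mem_filter, mem_univ, true_and, mem_singleton]
      exact quadraticChar_eq_zero_iff
    simp [P, this]
  refine ⟨A, B, (algebraMap K L).injective ?_⟩
  simp only [map_mul, map_sub, map_add, map_pow, map_natCast, map_one, hA, hB, map_ofNat]
  have e : ((P 1 - P (-1)) / g) ^ 2 * g ^ 2 = (P 1 - P (-1)) ^ 2 := by
    rw [← mul_pow, div_mul_cancel₀ _ g0]
  rw [hg] at e
  rw [← hP, hP0]
  linear_combination (-(algebraMap K L x - 1)) * e

theorem four_sq {K : Type*} [Field K] [CharZero K] {δ x : K} (hδ : δ ^ 2 = 5) {r : ℕ} (h : r.Coprime 20)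
    (hx : x ^ r = 1) (x1 : x ≠ 1) : ∃ a b c d : K, a ≠ 0 ∧ a ^ 2 + b ^ 2 + c ^ 2 + d ^ 2 = 0 := by
  obtain ⟨l, hl, h4, ⟨m, hm⟩, hs⟩ := exists_prime h
  obtain ⟨A, B, e⟩ := gauss hl h4 x x1
  obtain ⟨a, b, e2⟩ := s2_of_dvd hδ l hl.pos hs
  have ro : Odd r := by
    rw [← Nat.coprime_two_right]
    exact Nat.Coprime.coprime_dvd_right (by norm_num) h
  obtain ⟨k, rfl⟩ := ro
  have x0 : x ≠ 0 := by
    rintro rfl
    simp at hx
  have h1 : x ^ l * x = 1 := by rw [← pow_succ, hm, pow_mul, hx, one_pow]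
  have h2 : (x ^ k) ^ 2 * x = 1 := by rw [← pow_mul, ← pow_succ, mul_comm k, hx]
  refine ⟨2 * x ^ k, A, a * B, b * B, mul_ne_zero two_ne_zero (pow_ne_zero _ x0), ?_⟩
  refine mul_left_cancel₀ (mul_ne_zero x0 (sub_ne_zero.2 x1)) ?_
  rw [e2] at e
  linear_combination x * e + 4 * h1 + 4 * (x - 1) * h2

end Cfsg.Agent.Part.Am
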