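import Mathlib
import Cfsg.Agent.Comp2.Balance2
import Cfsg.Agent.Core.Coprime

set_option autoImplicit false
open Cfsg Subgroup
open scoped commutatorElement

namespace Cfsg.Agent.Part.CSep

open Cfsg.Agent Cfsg.Agent.Comp2

variable {Q : Type*} [Group Q]

theorem norm_cent {K : Subgroup Q} {g : Q} (hg : g ∈ normalizer (K : Set Q)) {x : Q}
    (hx : x ∈ centralizer (K : Set Q)) : g * x * g⁻¹ ∈ centralizer (K : Set Q) := by
  rw [mem_centralizer_iff] at hx ⊢
  intro k hk
  have h1 : g⁻¹ * k * g ∈ K := by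
    have := (mem_normalizer_iff.1 (inv_mem hg) k).1 hk
    simpa using this
  have h2 := hx _ h1
  calc k * (g * x * g⁻¹) = g * ((g⁻¹ * k * g) * x) * g⁻¹ := by group
    _ = g * (x * (g⁻¹ * k * g)) * g⁻¹ := by rw [h2]
    _ = g * x * g⁻¹ * k := by group

theorem comm_mem_cent {K : Subgroup Q} {v d : Q} (hv : v ∈ normalizer (K : Set Q))
    (hd : d ∈ centralizer (K : Set Q)) : ⁅v, d⁆ ∈ centralizer (K : Set Q) := by
  rw [commutatorElement_def]
  exact mul_mem (norm_cent hv hd) (inv_mem hd)

/-- The first quotient lemma. -/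
theorem quot1 [Finite Q] (hO : pPrimeCore 2 Q = ⊥) {a : Q} (ha : orderOf a = 2) {B : Subgroup Q}
    (hB : B ≤ centralizer {a})
    (h : ∀ K : Subgroup Q, IsComponent K → a ∈ centralizer (K : Set Q) ∨
      ∀ b ∈ B, b ∈ centralizer (K : Set Q) ∨ a⁻¹ * b ∈ centralizer (K : Set Q)) :
    ⁅centralizerPPrimeCore 2 a, B⁆ = ⊥ := by
  haveI : Fact (Nat.Prime 2) := ⟨Nat.prime_two⟩
  have ha' : orderOf a = 2 ^ 1 := by simpa using ha
  have hle : ⁅centralizerPPrimeCore 2 a, B⁆ ≤ centralizerPPrimeCore 2 a :=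
    Core.commutator_le_of_le_normalizer
      (hB.trans (centralizer_le_normalizer_centralizerPPrimeCore a))
  refine eq_bot_of_centralizes_pCore_of_components (p := 2) hO ?_ ?_ ?_
  · exact Nat.Coprime.coprime_dvd_left (card_dvd_of_le hle) (centralizerPPrimeCore_coprime a)
  · exact hle.trans (centralizerPPrimeCore_le_centralizer_pCore ha')
  · intro K hK
    by_cases hne : ⁅K, zpowers a⁆ = K
    · have haN := mem_normalizer_of_commutator_zpowers_eq hne
      rcases h K hK with h1 | h1
      · exfalso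
        have h2 : ⁅K, zpowers a⁆ = ⊥ :=
          Core.le_centralizer_iff_commutator_eq_bot.1 (by simpa using h1)
        rw [h2] at hne
        exact component_ne_bot hK hne.symm
      · rw [← Core.le_centralizer_iff_commutator_eq_bot, commutator_le]
        intro v hv b hb
        have hvN := centralizerPPrimeCore_le_normalizer_component hO ha' hK hv
        rcases h1 b hb with h2 | h2
        · exact comm_mem_cent hvN h2
        · have hva : a * v = v * a := by
            have := centralizerPPrimeCore_le a hv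
            exact mem_centralizer_iff.1 this a rfl
          have h3 := norm_cent haN (comm_mem_cent hvN h2)
          have h4 : a * ⁅v, a⁻¹ * b⁆ * a⁻¹ = ⁅v, b⁆ := by
            simp only [commutatorElement_def]
            calc a * (v * (a⁻¹ * b) * v⁻¹ * (a⁻¹ * b)⁻¹) * a⁻¹
                = (a * v) * a⁻¹ * b * v⁻¹ * b⁻¹ := by group
              _ = v * b * v⁻¹ * b⁻¹ := by rw [hva]; group
          rwa [h4] at h3
    · have h2 := component_commutator_centralizerPPrimeCore hO ha hK hne
      exact le_bot_iff.1 (h2 ▸ commutator_mono le_rfl hle)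

/-- The second quotient lemma. -/
theorem quot2 [Finite Q] (hO : pPrimeCore 2 Q = ⊥) {K U V : Subgroup Q} (hK : IsComponent K)
    (hU : (Nat.card U).Coprime 2) (hKU : K ≤ normalizer (U : Set Q)) (hVU : V ≤ U)
    (hVK : V ≤ normalizer (K : Set Q)) : ⁅K, V⁆ = ⊥ := by
  haveI : Fact (Nat.Prime 2) := ⟨Nat.prime_two⟩
  have h1 : ⁅K, V⁆ ≤ K := Core.commutator_le_of_le_normalizer hVK
  have h2 : ⁅K, V⁆ ≤ U := by
    refine (commutator_mono le_rfl hVU).trans ?_
    rw [Subgroup.commutator_comm]
    exact Core.commutator_le_of_le_normalizer hKU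
  have h3 : K ⊓ U = ⊥ := by
    by_contra hne
    have hsub : (K ⊓ U).IsSubnormal := by
      have hn : ((K ⊓ U).subgroupOf K).Normal := by
        rw [normal_subgroupOf_iff_le_normalizer inf_le_left]
        intro k hk
        rw [mem_normalizer_iff]
        intro x
        simp only [mem_inf]
        rw [← mem_normalizer_iff.1 (hKU hk) x, ← mem_normalizer_iff.1 (le_normalizer hk) x]
      exact IsSubnormal.trans inf_le_left hn.isSubnormal hK.1
    have h4 := dvd_card_of_subnormal_of_pPrimeCore_eq_bot hO hsub hne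
    have h5 : 2 ∣ Nat.card U := h4.trans (card_dvd_of_le inf_le_right)
    have := Nat.Coprime.eq_one_of_dvd hU.symm h5
    omega
  exact le_bot_iff.1 (h3 ▸ le_inf h1 h2)


variable {G : Type*} [Group G]

/-- The quotient `C(c) / O(C(c))`. -/
abbrev Qt (c : G) : Type _ :=
  (centralizer ({c} : Set G)) ⧸ pPrimeCore 2 (centralizer ({c} : Set G))

/-- The projection. -/
abbrev pr (c : G) : centralizer ({c} : Set G) →* Qt c := QuotientGroup.mk' _

/-- The image in the quotient. -/
def im (c : G) (X : Subgroup G) : Subgroup (Qt c) := (X.subgroupOf (centralizer {c})).map (pr c)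

theorem mem_im {c : G} {X : Subgroup G} {x : G} (hx : x ∈ X) (hc : x ∈ centralizer ({c} : Set G)) :
    pr c ⟨x, hc⟩ ∈ im c X := mem_map_of_mem _ (mem_subgroupOf.2 hx)

theorem im_mono {c : G} {X Y : Subgroup G} (h : X ≤ Y) : im c X ≤ im c Y :=
  map_mono (subgroupOf_mono _ h)

theorem le_of_im_eq_bot {c : G} {X : Subgroup G} (hX : X ≤ centralizer {c}) (h : im c X = ⊥) :
    X ≤ centralizerPPrimeCore 2 c := by
  intro x hx
  have h1 := mem_im hx (hX hx)
  rw [h, mem_bot] at h1
  exact ⟨⟨x, hX hx⟩, (QuotientGroup.eq_one_iff _).1 h1, rfl⟩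

theorem im_eq_bot_of_le {c : G} {X : Subgroup G} (h : X ≤ centralizerPPrimeCore 2 c) :
    im c X = ⊥ := by
  rw [eq_bot_iff]
  rintro _ ⟨x, hx, rfl⟩
  obtain ⟨y, hy, hyx⟩ := h (mem_subgroupOf.1 hx)
  have : y = x := Subtype.ext hyx
  subst this
  exact mem_bot.2 ((QuotientGroup.eq_one_iff _).2 hy)

theorem subgroupOf_comm {H X Y : Subgroup G} (hX : X ≤ H) (hY : Y ≤ H) :
    (⁅X, Y⁆).subgroupOf H = ⁅X.subgroupOf H, Y.subgroupOf H⁆ := by
  have h1 : (⁅X.subgroupOf H, Y.subgroupOf H⁆).map H.subtype = ⁅X, Y⁆ := by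
    rw [map_commutator, map_subgroupOf_eq_of_le hX, map_subgroupOf_eq_of_le hY]
  rw [← h1, subgroupOf, comap_map_eq_self_of_injective H.subtype_injective]

theorem im_comm {c : G} {X Y : Subgroup G} (hX : X ≤ centralizer {c}) (hY : Y ≤ centralizer {c}) :
    im c ⁅X, Y⁆ = ⁅im c X, im c Y⁆ := by
  simp only [im, subgroupOf_comm hX hY, map_commutator]

theorem im_map {c : G} (E : Subgroup (centralizer ({c} : Set G))) :
    im c (E.map (centralizer ({c} : Set G)).subtype) = E.map (pr c) := by
  rw [im, subgroupOf, comap_map_eq_self_of_injective (subtype_injective _)]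

theorem im_sup {c : G} {X Y : Subgroup G} (hX : X ≤ centralizer {c}) (hY : Y ≤ centralizer {c}) :
    im c (X ⊔ Y) = im c X ⊔ im c Y := by
  rw [im, subgroupOf_sup hX hY, Subgroup.map_sup]; rfl

theorem im_card [Finite G] {c : G} {X : Subgroup G} (h : (Nat.card X).Coprime 2) :
    (Nat.card (im c X)).Coprime 2 := by
  refine Nat.Coprime.coprime_dvd_left ((card_map_dvd _ _).trans ?_) h
  exact card_comap_dvd_of_injective _ _ (subtype_injective _)

theorem ker_coprime [Finite G] (c : G) : (Nat.card (pr c).ker).Coprime 2 := by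
  rw [QuotientGroup.ker_mk']
  exact Core.pPrimeCore_coprime _

theorem im_O [Finite G] {a c : G} (ha : orderOf a = 2) (hc : a ∈ centralizer ({c} : Set G)) :
    im c (centralizerPPrimeCore 2 a) ≤ centralizerPPrimeCore 2 (pr c ⟨a, hc⟩) :=
  haveI : Fact (Nat.Prime 2) := ⟨Nat.prime_two⟩
  map_centralizerPPrimeCore_subgroupOf_le (p := 2) (k := 1) (x := ⟨a, hc⟩) (pr c)
    (QuotientGroup.mk'_surjective _) (ker_coprime c) (by simpa using ha)

theorem orderOf_pr [Finite G] {a c : G} (ha : orderOf a = 2) (hc : a ∈ centralizer ({c} : Set G)) :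
    orderOf (pr c ⟨a, hc⟩) = 2 := by
  haveI : Fact (Nat.Prime 2) := ⟨Nat.prime_two⟩
  have h2 : orderOf (⟨a, hc⟩ : centralizer ({c} : Set G)) = 2 := by
    rw [← ha]; exact (orderOf_coe _).symm
  apply orderOf_eq_prime
  · have h3 := pow_orderOf_eq_one (⟨a, hc⟩ : centralizer ({c} : Set G))
    rw [h2] at h3
    rw [← map_pow, h3, map_one]
  · intro h
    have h3 := coprime_orderOf_of_mem (ker_coprime c) (x := ⟨a, hc⟩) h
    rw [h2] at h3
    norm_num at h3

theorem im_normalizer {c : G} {X Y : Subgroup G} (h : Y ≤ normalizer (X : Set G)) :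
    im c Y ≤ normalizer (im c X : Set (Qt c)) := by
  refine le_trans (map_mono ?_) (le_normalizer_map (pr c))
  exact (subgroupOf_mono _ h).trans (le_normalizer_comap _)

theorem im_centralizer [Finite G] {c : G} {B : Subgroup G} (hB : B ≤ centralizer {c})
    (h2 : IsPGroup 2 B) :
    centralizer (im c B : Set (Qt c)) ≤ im c (centralizer (B : Set G) ⊓ centralizer {c}) := by
  haveI : Fact (Nat.Prime 2) := ⟨Nat.prime_two⟩
  have h3 : IsPGroup 2 (B.subgroupOf (centralizer {c})) := h2.comap_of_injective _ (subtype_injective _)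
  obtain ⟨n, hn⟩ := IsPGroup.iff_card.1 h3
  haveI := h3.isNilpotent
  rw [im, centralizer_map_of_coprime (pr c) (QuotientGroup.mk'_surjective _) _
    (by rw [hn]; exact Nat.Coprime.pow_left _ (ker_coprime c).symm) (Or.inl inferInstance)]
  refine map_mono ?_
  intro x hx
  rw [mem_subgroupOf, mem_inf]
  refine ⟨mem_centralizer_iff.2 fun b hb => ?_, x.2⟩
  have := mem_centralizer_iff.1 hx ⟨b, hB hb⟩ (mem_subgroupOf.2 hb)
  exact congrArg Subtype.val this

theorem sep_im [Finite G] {c : G} {A₁ A₂ : Subgroup G} (h1 : A₁ ≤ centralizer {c})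
    (h2 : A₂ ≤ centralizer {c})
    (h : ∀ E : Subgroup ↥(centralizer ({c} : Set G)), IsPComponent 2 E →
      ⁅E.map (centralizer ({c} : Set G)).subtype, A₁⁆ ≤ centralizerPPrimeCore 2 c ∨
      ⁅E.map (centralizer ({c} : Set G)).subtype, A₂⁆ ≤ centralizerPPrimeCore 2 c)
    {K : Subgroup (Qt c)} (hK : IsComponent K) : ⁅K, im c A₁⁆ = ⊥ ∨ ⁅K, im c A₂⁆ = ⊥ := by
  haveI : Fact (Nat.Prime 2) := ⟨Nat.prime_two⟩
  have hE := pComponent_opp_comap hK
  have hm := map_opp_comap hK
  rcases h _ hE with h3 | h3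
  · left
    have := im_eq_bot_of_le h3
    rwa [im_comm (map_subtype_le _) h1, im_map, hm] at this
  · right
    have := im_eq_bot_of_le h3
    rwa [im_comm (map_subtype_le _) h2, im_map, hm] at this

end Cfsg.Agent.Part.CSep
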