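import Mathlib
import Cfsg.Agent.Part.CSep1
import Cfsg.Agent.S1329

set_option autoImplicit false
open Cfsg Subgroup
open scoped commutatorElement

namespace Cfsg.Agent.Part.CSep

open Cfsg.Agent Cfsg.Agent.Comp2

variable {G : Type*} [Group G] {A₁ A₂ : Subgroup G}

theorem cs_symm (h : IsCoreSeparated A₁ A₂) : IsCoreSeparated A₂ A₁ := by
  obtain ⟨h1, h2, h3, h4, h5, h6, h7, h8⟩ := h
  refine ⟨h2, h1, h4, h3, h5.symm, by rw [inf_comm, h6], fun x hx y hy => (h7 y hy x hx).symm, ?_⟩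
  intro a ha ha1 E hE
  exact (h8 a (by rwa [sup_comm]) ha1 E hE).symm

theorem cs_mem (h : IsCoreSeparated A₁ A₂) {a : G} (ha : a ∈ A₁ ⊔ A₂) :
    ∃ x ∈ A₁, ∃ y ∈ A₂, x * y = a := by
  have hN : A₂ ≤ normalizer (A₁ : Set G) := by
    refine le_trans ?_ (centralizer_le_normalizer _)
    intro y hy
    exact mem_centralizer_iff.2 fun x hx => h.2.2.2.2.2.2.1 x hx y hy
  have : a ∈ ((A₁ ⊔ A₂ : Subgroup G) : Set G) := ha
  rw [coe_mul_of_right_le_normalizer_left _ _ hN] at this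
  exact this

theorem ea_comm {B : Subgroup G} (h : IsElementaryAbelian 2 B) {x y : G} (hx : x ∈ B)
    (hy : y ∈ B) : x * y = y * x :=
  congrArg Subtype.val (h.1.is_comm.comm (⟨x, hx⟩ : B) ⟨y, hy⟩)

theorem cs_comm (h : IsCoreSeparated A₁ A₂) {a b : G} (ha : a ∈ A₁ ⊔ A₂) (hb : b ∈ A₁ ⊔ A₂) :
    a * b = b * a := by
  obtain ⟨x, hx, y, hy, rfl⟩ := cs_mem h ha
  obtain ⟨z, hz, w, hw, rfl⟩ := cs_mem h hb
  have c1 : Commute x z := ea_comm h.1 hx hz
  have c2 : Commute x w := h.2.2.2.2.2.2.1 x hx w hw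
  have c3 : Commute y z := (h.2.2.2.2.2.2.1 z hz y hy).symm
  have c4 : Commute y w := ea_comm h.2.1 hy hw
  exact (c1.mul_right c2).mul_left (c3.mul_right c4)

theorem cs_le (h : IsCoreSeparated A₁ A₂) {a : G} (ha : a ∈ A₁ ⊔ A₂) :
    A₁ ⊔ A₂ ≤ centralizer {a} := fun b hb =>
  mem_centralizer_iff.2 fun x hx => by rw [Set.mem_singleton_iff.1 hx]; exact cs_comm h ha hb

theorem cs_order (h : IsCoreSeparated A₁ A₂) {a : G} (ha : a ∈ A₁ ⊔ A₂) (h1 : a ≠ 1) :
    orderOf a = 2 := by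
  haveI : Fact (Nat.Prime 2) := ⟨Nat.prime_two⟩
  refine orderOf_eq_prime ?_ h1
  obtain ⟨x, hx, y, hy, rfl⟩ := cs_mem h ha
  have c2 : Commute x y := h.2.2.2.2.2.2.1 x hx y hy
  rw [c2.mul_pow, h.1.2 x hx, h.2.1.2 y hy, one_mul]

theorem cs_pgroup (h : IsCoreSeparated A₁ A₂) : IsPGroup 2 A₁ :=
  IsPGroup.of_card (n := 2) h.2.2.1

theorem four_cases {B : Subgroup G} (h : IsElementaryAbelian 2 B) (h4 : Nat.card B = 4) {c x : G}
    (hc : c ∈ B) (hx : x ∈ B) (hc1 : c ≠ 1) (hx1 : x ≠ 1) (hxc : x ≠ c) {b : G} (hb : b ∈ B) :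
    b = 1 ∨ b = c ∨ b = x ∨ b = c * x := by
  have hcc : c * c = 1 := by rw [← pow_two]; exact h.2 c hc
  have e1 : c * x ≠ 1 := fun e => hxc (mul_left_cancel (e.trans hcc.symm))
  have e2 : c * x ≠ c := fun e => hx1 (by simpa using e)
  have e3 : c * x ≠ x := fun e => hc1 (by simpa using e)
  have hfin : (B : Set G).Finite := by
    have : Finite B := Nat.finite_of_card_ne_zero (by omega)
    exact Set.toFinite _
  have hsub : ({1, c, x, c * x} : Set G) ⊆ B := by
    intro y hy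
    simp only [Set.mem_insert_iff, Set.mem_singleton_iff] at hy
    rcases hy with rfl | rfl | rfl | rfl
    exacts [one_mem _, hc, hx, mul_mem hc hx]
  have hcard : ({1, c, x, c * x} : Set G).ncard = 4 := by
    rw [Set.ncard_insert_of_notMem (by simp [hc1.symm, hx1.symm, e1.symm]),
      Set.ncard_insert_of_notMem (by simp [hxc.symm, e2.symm, hx1]),
      Set.ncard_pair e3.symm]
  have heq := Set.eq_of_subset_of_ncard_le hsub (by
    rw [hcard]; exact (show (B : Set G).ncard = 4 from h4).le) hfin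
  have : b ∈ ({1, c, x, c * x} : Set G) := heq ▸ hb
  simpa using this

theorem cases_T (h : IsCoreSeparated A₁ A₂) {a c : G} (ha : a ∈ A₁ ⊔ A₂) (hc : c ∈ A₁)
    (hc1 : c ≠ 1) {T : Subgroup G} (h2 : A₂ ≤ T) (hcT : c ∈ T) :
    a ∈ T ∨ ∀ b ∈ A₁, b ∈ T ∨ a⁻¹ * b ∈ T := by
  obtain ⟨x, hx, y, hy, rfl⟩ := cs_mem h ha
  by_cases hx1 : x = 1
  · left; rw [hx1, one_mul]; exact h2 hy
  by_cases hxc : x = c
  · left; rw [hxc]; exact mul_mem hcT (h2 hy)
  right
  intro b hb
  rcases four_cases h.1 h.2.2.1 hc hx hc1 hx1 hxc hb with rfl | rfl | rfl | rfl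
  · left; exact one_mem _
  · left; exact hcT
  · right; simpa using h2 hy
  · right
    rw [ea_comm h.1 hc hx]
    have : (x * y)⁻¹ * (x * c) = y⁻¹ * c := by group
    rw [this]
    exact mul_mem (inv_mem (h2 hy)) hcT

theorem comm_le_of_le {X Y H : Subgroup G} (hX : X ≤ H) (hY : Y ≤ H) : ⁅X, Y⁆ ≤ H :=
  commutator_le.2 fun _ hx _ hy =>
    mul_mem (mul_mem (mul_mem (hX hx) (hY hy)) (inv_mem (hX hx))) (inv_mem (hY hy))

/-- Step 1. -/
theorem step1 [Finite G] (h : IsCoreSeparated A₁ A₂) {a c : G} (ha : a ∈ A₁ ⊔ A₂) (ha1 : a ≠ 1)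
    (hc : c ∈ A₁) (hc1 : c ≠ 1) :
    ⁅centralizerPPrimeCore 2 a ⊓ centralizer {c}, A₁⁆ ≤ centralizerPPrimeCore 2 c := by
  have hcA : c ∈ A₁ ⊔ A₂ := le_sup_left (a := A₁) (b := A₂) hc
  have hA := cs_le h hcA
  have h1 : A₁ ≤ centralizer {c} := le_sup_left.trans hA
  have h2 : A₂ ≤ centralizer {c} := le_sup_right.trans hA
  have hao := cs_order h ha ha1
  refine le_of_im_eq_bot (comm_le_of_le inf_le_right h1) ?_
  rw [im_comm inf_le_right h1, eq_bot_iff]
  refine (commutator_mono ((im_mono inf_le_left).trans (im_O hao (hA ha))) le_rfl).trans ?_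
  rw [quot1 (Core.pPrimeCore_quotient_pPrimeCore 2) (orderOf_pr hao (hA ha))]
  · rintro _ ⟨x, hx, rfl⟩
    rw [mem_centralizer_iff]
    rintro _ rfl
    rw [← map_mul, ← map_mul]
    congr 1
    exact Subtype.ext (cs_comm h ha (le_sup_left (a := A₁) (b := A₂) hx))
  · intro K hK
    rcases sep_im h1 h2 (h.2.2.2.2.2.2.2 c hcA hc1) hK with h3 | h3
    · right
      intro b hb
      left
      exact Core.le_centralizer_iff_commutator_eq_bot.2 h3 hb
    · have h4 := Core.le_centralizer_iff_commutator_eq_bot.2 h3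
      let T : Subgroup G :=
        ((centralizer (K : Set (Qt c))).comap (pr c)).map (centralizer ({c} : Set G)).subtype
      have hT : ∀ x (hx : x ∈ centralizer ({c} : Set G)),
          x ∈ T ↔ pr c ⟨x, hx⟩ ∈ centralizer (K : Set (Qt c)) := by
        intro x hx
        constructor
        · rintro ⟨y, hy, rfl⟩; exact hy
        · intro hy; exact ⟨⟨x, hx⟩, hy, rfl⟩
      have h5 : A₂ ≤ T := fun y hy => (hT y (h2 hy)).2 (h4 (mem_im hy _))
      have h6 : c ∈ T := by
        refine (hT c (h1 hc)).2 (mem_centralizer_iff.2 fun k _ => ?_)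
        obtain ⟨k, rfl⟩ := QuotientGroup.mk'_surjective _ k
        rw [← map_mul, ← map_mul]
        congr 1
        exact Subtype.ext (mem_centralizer_iff.1 k.2 c rfl).symm
      rcases cases_T h ha hc hc1 h5 h6 with h7 | h7
      · left; exact (hT _ _).1 h7
      · right
        rintro _ ⟨b, hb, rfl⟩
        rcases h7 b hb with h8 | h8
        · left; exact (hT _ b.2).1 h8
        · right
          rw [← map_inv, ← map_mul]
          exact (hT _ (mul_mem (inv_mem (hA ha)) b.2)).1 h8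

/-- The core of the centralizer of a subgroup. -/
abbrev OC (B : Subgroup G) : Subgroup G :=
  (oddCore ↥(centralizer (B : Set G))).map (centralizer (B : Set G)).subtype

theorem OC_le (B : Subgroup G) : OC B ≤ centralizer (B : Set G) := map_subtype_le _

theorem OC_coprime [Finite G] (B : Subgroup G) : (Nat.card (OC B)).Coprime 2 := by
  rw [Subgroup.card_map_of_injective (subtype_injective _)]
  exact Core.pPrimeCore_coprime 2

theorem le_norm_OC (B : Subgroup G) : centralizer (B : Set G) ≤ normalizer (OC B : Set G) := by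
  rw [← normal_subgroupOf_iff_le_normalizer (OC_le B), subgroupOf,
    comap_map_eq_self_of_injective (subtype_injective _)]
  infer_instance

theorem le_OC {B N : Subgroup G} (hle : N ≤ centralizer (B : Set G))
    (hn : centralizer (B : Set G) ≤ normalizer (N : Set G)) (h : (Nat.card N).Coprime 2) :
    N ≤ OC B := by
  rw [← map_subgroupOf_eq_of_le hle]
  refine map_mono (Core.le_pPrimeCore ((normal_subgroupOf_iff_le_normalizer hle).2 hn) ?_)
  rwa [Nat.card_congr (subgroupOfEquivOfLe hle).toEquiv]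

theorem le_norm_inf {B X Y : Subgroup G} (hX : B ≤ normalizer (X : Set G))
    (hY : B ≤ normalizer (Y : Set G)) : B ≤ normalizer ((X ⊓ Y : Subgroup G) : Set G) := by
  intro k hk
  rw [mem_normalizer_iff]
  intro x
  simp only [mem_inf]
  rw [← mem_normalizer_iff.1 (hX hk) x, ← mem_normalizer_iff.1 (hY hk) x]

theorem O_inf_le_OC [Finite G] {B : Subgroup G} {c : G} (hc : c ∈ B) :
    centralizerPPrimeCore 2 c ⊓ centralizer (B : Set G) ≤ OC B := by
  refine le_OC inf_le_right (le_norm_inf ?_ le_normalizer) ?_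
  · refine le_trans ?_ (centralizer_le_normalizer_centralizerPPrimeCore c)
    exact centralizer_le (by simpa using hc)
  · exact Nat.Coprime.coprime_dvd_left (card_dvd_of_le inf_le_left) (centralizerPPrimeCore_coprime c)

theorem card_coprime_four [Finite G] (h : IsCoreSeparated A₁ A₂) {X : Subgroup G}
    (hX : (Nat.card X).Coprime 2) : (Nat.card A₁).Coprime (Nat.card X) := by
  rw [h.2.2.1]
  exact Nat.Coprime.pow_left 2 hX.symm

theorem cs_solv (h : IsCoreSeparated A₁ A₂) : Group.IsSolvable A₁ := by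
  haveI := h.1.1
  letI : CommGroup A₁ := { (inferInstance : Group A₁) with mul_comm := h.1.1.is_comm.comm }
  infer_instance

/-- Step 2, commutator part. -/
theorem step2a [Finite G] (h : IsCoreSeparated A₁ A₂) {a : G} (ha : a ∈ A₁ ⊔ A₂) (ha1 : a ≠ 1) :
    ⁅centralizerPPrimeCore 2 a, A₁⁆ ⊓ centralizer (A₁ : Set G) ≤ OC A₁ := by
  have hN : A₁ ≤ normalizer (centralizerPPrimeCore 2 a : Set G) :=
    (le_sup_left.trans (cs_le h ha)).trans (centralizer_le_normalizer_centralizerPPrimeCore a)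
  have hle : ⁅centralizerPPrimeCore 2 a, A₁⁆ ≤ centralizerPPrimeCore 2 a :=
    Core.commutator_le_of_le_normalizer hN
  have hodd : (Nat.card (⁅centralizerPPrimeCore 2 a, A₁⁆ : Subgroup G)).Coprime 2 :=
    Nat.Coprime.coprime_dvd_left (card_dvd_of_le hle) (centralizerPPrimeCore_coprime a)
  rw [S1329.result A₁ A₁ _ (cs_pgroup h) h.1.1 le_rfl (Nat.coprime_two_right.1 hodd)
    (normalizer_commutator_ge_right _ _)
    (Core.commutator_commutator_eq _ _ hN (card_coprime_four h (centralizerPPrimeCore_coprime a))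
      (Or.inl (cs_solv h)))]
  refine iSup_le ?_
  rintro ⟨B, hB, hcyc⟩
  have hne : B ≠ ⊥ := by
    rintro rfl
    haveI : ((⊥ : Subgroup G).subgroupOf A₁).Normal := by rw [bot_subgroupOf]; infer_instance
    have h1 : IsCyclic (A₁ ⧸ (⊥ : Subgroup G).subgroupOf A₁) := hcyc
    have h2 := h1.exponent_eq_card
    have h3 : Nat.card (A₁ ⧸ (⊥ : Subgroup G).subgroupOf A₁) = 4 := by
      rw [← index_eq_card, bot_subgroupOf, index_bot, h.2.2.1]
    have h4 : Monoid.exponent (A₁ ⧸ (⊥ : Subgroup G).subgroupOf A₁) ∣ 2 := by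
      refine Monoid.exponent_dvd_of_forall_pow_eq_one fun g => ?_
      obtain ⟨g, rfl⟩ := QuotientGroup.mk'_surjective _ g
      rw [← map_pow, show g ^ 2 = 1 from Subtype.ext (h.1.2 g g.2), map_one]
    rw [h2, h3] at h4
    norm_num at h4
  obtain ⟨⟨c, hc⟩, hc1⟩ := ne_bot_iff_exists_ne_one.1 hne
  have hc1' : c ≠ 1 := fun e => hc1 (Subtype.ext e)
  refine le_trans ?_ (O_inf_le_OC (hB hc))
  refine le_inf (inf_le_right.trans ?_) (inf_le_left.trans inf_le_right)
  refine le_trans (commutator_mono (inf_le_inf hle ?_) le_rfl) (step1 h ha ha1 (hB hc) hc1')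
  exact centralizer_le (by simpa using hc)

/-- One half of the functor. -/
abbrev th (B : Subgroup G) (a : G) : Subgroup G :=
  ⁅centralizerPPrimeCore 2 a, B⁆ ⊔ (centralizerPPrimeCore 2 a ⊓ OC B)

theorem th_le (h : IsCoreSeparated A₁ A₂) {a : G} (ha : a ∈ A₁ ⊔ A₂) :
    th A₁ a ≤ centralizerPPrimeCore 2 a :=
  sup_le (Core.commutator_le_of_le_normalizer ((le_sup_left.trans (cs_le h ha)).trans
    (centralizer_le_normalizer_centralizerPPrimeCore a))) inf_le_left

theorem step2 [Finite G] (h : IsCoreSeparated A₁ A₂) {a : G} (ha : a ∈ A₁ ⊔ A₂) (ha1 : a ≠ 1) :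
    th A₁ a ⊓ centralizer (A₁ : Set G) ≤ OC A₁ := by
  rintro x ⟨hx, hxc⟩
  have hN : centralizerPPrimeCore 2 a ⊓ OC A₁ ≤
      normalizer ((⁅centralizerPPrimeCore 2 a, A₁⁆ : Subgroup G) : Set G) :=
    inf_le_left.trans (normalizer_commutator_ge_left _ _)
  have hx' : x ∈ ((th A₁ a : Subgroup G) : Set G) := hx
  rw [coe_mul_of_right_le_normalizer_left _ _ hN] at hx'
  obtain ⟨y, hy, u, hu, rfl⟩ := hx'
  refine mul_mem (step2a h ha ha1 ⟨hy, ?_⟩) hu.2
  have hxc' : y * u ∈ centralizer (A₁ : Set G) := hxc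
  have := mul_mem hxc' (inv_mem (OC_le A₁ hu.2))
  simpa using this

theorem le_norm_comm {B X Y : Subgroup G} (hX : B ≤ normalizer (X : Set G))
    (hY : B ≤ normalizer (Y : Set G)) : B ≤ normalizer ((⁅X, Y⁆ : Subgroup G) : Set G) := by
  intro k hk
  rw [← map_conj_eq_iff, map_commutator, map_conj_eq_iff.2 (hX hk), map_conj_eq_iff.2 (hY hk)]

theorem le_norm_sup {B X Y : Subgroup G} (hX : B ≤ normalizer (X : Set G))
    (hY : B ≤ normalizer (Y : Set G)) : B ≤ normalizer ((X ⊔ Y : Subgroup G) : Set G) := by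
  intro k hk
  rw [← map_conj_eq_iff, Subgroup.map_sup, map_conj_eq_iff.2 (hX hk), map_conj_eq_iff.2 (hY hk)]

theorem cs_le_cent (h : IsCoreSeparated A₁ A₂) : A₁ ⊔ A₂ ≤ centralizer (A₁ : Set G) :=
  fun _ hb => mem_centralizer_iff.2 fun _ hx => cs_comm h (le_sup_left (a := A₁) (b := A₂) hx) hb

theorem le_norm_th (h : IsCoreSeparated A₁ A₂) {a : G} (ha : a ∈ A₁ ⊔ A₂) :
    A₁ ⊔ A₂ ≤ normalizer (th A₁ a : Set G) := by
  have h1 := (cs_le h ha).trans (centralizer_le_normalizer_centralizerPPrimeCore (p := 2) a)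
  exact le_norm_sup (le_norm_comm h1 ((cs_le_cent h).trans (centralizer_le_normalizer _)))
    (le_norm_inf h1 ((cs_le_cent h).trans (le_norm_OC _)))

theorem step3a [Finite G] (h : IsCoreSeparated A₁ A₂) {a b : G} (ha : a ∈ A₁ ⊔ A₂) (ha1 : a ≠ 1)
    (hb : b ∈ A₁ ⊔ A₂) {X : Subgroup G} (hX : X ≤ th A₁ a) (hXb : X ≤ centralizer {b})
    (hN : A₁ ≤ normalizer (X : Set G)) {K : Subgroup (Qt b)} (hK : IsComponent K)
    (hKA : ⁅K, im b A₁⁆ = ⊥) : ⁅K, im b X⁆ = ⊥ := by
  haveI : Fact (Nat.Prime 2) := ⟨Nat.prime_two⟩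
  have hO : pPrimeCore 2 (Qt b) = ⊥ := Core.pPrimeCore_quotient_pPrimeCore 2
  have hA := cs_le h hb
  have h1 : A₁ ≤ centralizer {b} := le_sup_left.trans hA
  have hao := cs_order h ha ha1
  have hXO := hX.trans (th_le h ha)
  have hodd : (Nat.card X).Coprime 2 :=
    Nat.Coprime.coprime_dvd_left (card_dvd_of_le hXO) (centralizerPPrimeCore_coprime a)
  have hXK : im b X ≤ normalizer (K : Set (Qt b)) :=
    ((im_mono hXO).trans (im_O hao (hA ha))).trans
      (centralizerPPrimeCore_le_normalizer_component (k := 1) hO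
        (by simpa using orderOf_pr hao (hA ha)) hK)
  rw [← Core.commutator_sup_centralizer A₁ X hN (card_coprime_four h hodd) (Or.inl (cs_solv h)),
    im_sup (comm_le_of_le hXb h1) (inf_le_left.trans hXb), im_comm hXb h1,
    ← Core.le_centralizer_iff_commutator_eq_bot]
  refine sup_le ?_ ?_
  · refine commutator_le.2 fun v hv d hd => comm_mem_cent (hXK hv) ?_
    exact Core.le_centralizer_iff_commutator_eq_bot.2 hKA hd
  · rw [Core.le_centralizer_iff_commutator_eq_bot]
    refine quot2 hO hK (im_card (c := b) (OC_coprime A₁)) ?_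
      (im_mono ((inf_le_inf_right _ hX).trans (step2 h ha ha1))) ((im_mono inf_le_left).trans hXK)
    have h2 : K ≤ centralizer (im b A₁ : Set (Qt b)) := by
      rw [Core.le_centralizer_iff_commutator_eq_bot, Subgroup.commutator_comm, hKA]
    exact (h2.trans (im_centralizer h1 (cs_pgroup h))).trans
      (im_normalizer (inf_le_left.trans (le_norm_OC A₁)))

theorem step3b [Finite G] (h : IsCoreSeparated A₁ A₂) {a b : G} (ha : a ∈ A₁ ⊔ A₂) (ha1 : a ≠ 1)
    (hb : b ∈ A₁ ⊔ A₂) (hb1 : b ≠ 1) {X : Subgroup G} (hX : X ≤ th A₁ a) (hX2 : X ≤ th A₂ a)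
    (hXb : X ≤ centralizer {b}) (hN : A₁ ⊔ A₂ ≤ normalizer (X : Set G)) :
    X ≤ centralizerPPrimeCore 2 b := by
  haveI : Fact (Nat.Prime 2) := ⟨Nat.prime_two⟩
  have hO : pPrimeCore 2 (Qt b) = ⊥ := Core.pPrimeCore_quotient_pPrimeCore 2
  have hA := cs_le h hb
  have hao := cs_order h ha ha1
  have hXO := hX.trans (th_le h ha)
  have hodd : (Nat.card X).Coprime 2 :=
    Nat.Coprime.coprime_dvd_left (card_dvd_of_le hXO) (centralizerPPrimeCore_coprime a)
  refine le_of_im_eq_bot hXb (eq_bot_of_centralizes_pCore_of_components hO (im_card hodd) ?_ ?_)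
  · exact ((im_mono hXO).trans (im_O hao (hA ha))).trans
      (centralizerPPrimeCore_le_centralizer_pCore (k := 1) (by simpa using orderOf_pr hao (hA ha)))
  · intro K hK
    rcases sep_im (le_sup_left.trans hA) (le_sup_right.trans hA) (h.2.2.2.2.2.2.2 b hb hb1) hK
      with h3 | h3
    · exact step3a h ha ha1 hb hX hXb (le_sup_left.trans hN) hK h3
    · exact step3a (cs_symm h) (by rwa [sup_comm]) ha1 (by rwa [sup_comm]) hX2 hXb
        (le_sup_right.trans hN) hK h3

theorem step3c [Finite G] (h : IsCoreSeparated A₁ A₂) {a b : G} (ha : a ∈ A₁ ⊔ A₂) (ha1 : a ≠ 1)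
    {X : Subgroup G} (hX : X ≤ th A₁ a) (hXb : X ≤ centralizerPPrimeCore 2 b)
    (hN : A₁ ≤ normalizer (X : Set G)) : X ≤ th A₁ b := by
  have hodd : (Nat.card X).Coprime 2 :=
    Nat.Coprime.coprime_dvd_left (card_dvd_of_le hXb) (centralizerPPrimeCore_coprime b)
  rw [← Core.commutator_sup_centralizer A₁ X hN (card_coprime_four h hodd) (Or.inl (cs_solv h))]
  exact sup_le_sup (commutator_mono hXb le_rfl)
    (le_inf (inf_le_left.trans hXb) ((inf_le_inf_right _ hX).trans (step2 h ha ha1)))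

theorem main [Finite G] (h : IsCoreSeparated A₁ A₂) :
    IsSignalizerFunctor 2 (A₁ ⊔ A₂) (fun a => th A₁ a ⊓ th A₂ a) := by
  have hN : ∀ a ∈ A₁ ⊔ A₂, A₁ ⊔ A₂ ≤ normalizer ((th A₁ a ⊓ th A₂ a : Subgroup G) : Set G) := by
    intro a ha
    refine le_norm_inf (le_norm_th h ha) ?_
    rw [sup_comm] at ha ⊢
    exact le_norm_th (cs_symm h) ha
  refine ⟨fun a ha _ => ?_, fun a ha _ => ?_, fun a ha _ b hb x hx => ?_, fun a ha ha1 b hb hb1 => ?_⟩
  · exact (inf_le_left.trans (th_le h ha)).trans (centralizerPPrimeCore_le a)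
  · have := Nat.Coprime.coprime_dvd_left (card_dvd_of_le (inf_le_left.trans (th_le h ha) :
      th A₁ a ⊓ th A₂ a ≤ _)) (centralizerPPrimeCore_coprime a)
    exact (Nat.Prime.coprime_iff_not_dvd Nat.prime_two).1 this.symm
  · exact (mem_normalizer_iff.1 (hN a ha hb) x).1 hx
  · have hN2 : A₁ ⊔ A₂ ≤ normalizer
        ((th A₁ a ⊓ th A₂ a ⊓ centralizer {b} : Subgroup G) : Set G) :=
      le_norm_inf (hN a ha) ((cs_le h hb).trans le_normalizer)
    have h1 := step3b h ha ha1 hb hb1 (inf_le_left.trans inf_le_left)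
      (inf_le_left.trans inf_le_right) inf_le_right hN2
    exact le_inf (step3c h ha ha1 (inf_le_left.trans inf_le_left) h1 (le_sup_left.trans hN2))
      (step3c (cs_symm h) (by rwa [sup_comm]) ha1 (inf_le_left.trans inf_le_right) h1
        (le_sup_right.trans hN2))

end Cfsg.Agent.Part.CSep
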